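import Mathlib
import Cfsg.Agent.Lib.Helper14.MinSp2.Defs

/-! Basic facts on the field with two elements and the symplectic form over it. -/

set_option autoImplicit false

namespace Cfsg.Agent.Lib.Helper62.MinSp2

open Matrix Cfsg.Agent.Lib.Helper13 Cfsg.Agent.Lib.Helper5 Cfsg.Agent.Lib.Helper14.MinSp
open Cfsg.Agent.Lib.Helper14.MinSp2

variable {F : Type*} [Field F] [Fintype F] {m : ℕ}

lemma f2_cases (hF : Fintype.card F = 2) (a : F) : a = 0 ∨ a = 1 := by
  classical
  by_contra h
  push Not at h
  have h3 : ({0, 1, a} : Finset F).card = 3 := by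
    rw [Finset.card_insert_of_notMem, Finset.card_insert_of_notMem, Finset.card_singleton]
    · simpa using Ne.symm h.2
    · simp only [Finset.mem_insert, Finset.mem_singleton, not_or]
      exact ⟨zero_ne_one, Ne.symm h.1⟩
  have := Finset.card_le_univ ({0, 1, a} : Finset F)
  omega

lemma f2_two (hF : Fintype.card F = 2) : (2 : F) = 0 := by
  rcases f2_cases hF (2 : F) with h | h
  · exact h
  · exfalso
    have : (1 : F) = 0 := by linear_combination h
    exact one_ne_zero this

lemma f2_add_self (hF : Fintype.card F = 2) (a : F) : a + a = 0 := by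
  rw [← two_mul, f2_two hF, zero_mul]

lemma f2_neg (hF : Fintype.card F = 2) (a : F) : -a = a :=
  neg_eq_of_add_eq_zero_left (f2_add_self hF a)

lemma f2_ne_zero (hF : Fintype.card F = 2) {a : F} (h : a ≠ 0) : a = 1 :=
  (f2_cases hF a).resolve_left h

lemma v2_add_self (hF : Fintype.card F = 2) (v : Fin m ⊕ Fin m → F) : v + v = 0 := by
  rw [← two_smul F v, f2_two hF, zero_smul]

lemma v2_add_cancel (hF : Fintype.card F = 2) (v w : Fin m ⊕ Fin m → F) : v + (v + w) = w := by
  rw [← add_assoc, v2_add_self hF, zero_add]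

lemma v2_add_eq_zero (hF : Fintype.card F = 2) {v w : Fin m ⊕ Fin m → F} (h : v + w = 0) :
    v = w := by
  have := v2_add_cancel hF v w
  rw [h, add_zero] at this
  exact this

lemma sf_symm (hF : Fintype.card F = 2) (v w : Fin m ⊕ Fin m → F) :
    Cfsg.sympForm m F v w = Cfsg.sympForm m F w v := by
  rw [sympForm_swap, f2_neg hF]

end Cfsg.Agent.Lib.Helper62.MinSp2
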