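import Mathlib
import Cfsg.Agent.Lib.Helper14.MinSp2.Defs
import Cfsg.Agent.Lib.Helper91.MinSp.IDX
import Cfsg.Agent.Lib.Helper91.MinSp.INV
import Cfsg.Agent.Lib.Helper63.MinSp.DUAL
import Cfsg.Agent.Lib.Helper1.MinSp.ORB

/-! [T1] of the S2142 farm: the local analysis over the field with two elements. -/

set_option autoImplicit false

namespace Cfsg.Agent.Lib.Helper62.MinSp2

open Matrix Cfsg.Agent.Lib.Helper13 Cfsg.Agent.Lib.Helper5 Cfsg.Agent.Lib.Helper14.MinSp
open Cfsg.Agent.Lib.Helper14.MinSp2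

variable {F : Type*} [Field F] [Fintype F] {m : ℕ}

theorem local_two (hF : Fintype.card F = 2) (hm : 1 ≤ m) {P : Type*} [Group P] [Finite P]
    (L : Loc m F P) (S : Subgroup P) (hA : ∀ a, L.rho 0 a ∈ S → a = 0) :
    2 ^ m * (2 ^ (m + 1) - 1) ≤ S.index ∨ ∀ w, ∃ a, L.rho w a ∈ S := by
  classical
  by_cases hB : L.Bb S = ⊤
  · right
    intro w
    have : w ∈ L.Bb S := by rw [hB]; trivial
    exact this
  left
  have hcA : Nat.card (L.A S) = 1 := by
    have : L.A S = ⊥ := by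
      rw [eq_bot_iff]
      intro a ha
      exact hA a ha
    rw [this, AddSubgroup.card_bot]
  have hcL : Nat.card (L.Lam S) = 1 := by
    have h1 : Fintype.card Fˣ = 1 := by rw [Fintype.card_units, hF]
    have : Subsingleton Fˣ := Fintype.card_le_one_iff_subsingleton.1 h1.le
    have : L.Lam S = ⊥ := Subsingleton.elim _ _
    rw [this, Subgroup.card_bot]
  have hidx := Cfsg.Agent.Lib.Helper91.MinSp.index_formula L S
  rw [hcA, hcL, hF] at hidx
  have hK : (⊥ : AddSubgroup F).index.Prime := by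
    rw [AddSubgroup.index_bot, Nat.card_eq_fintype_card, hF]
    exact Nat.prime_two
  have hperp := Cfsg.Agent.Lib.Helper63.MinSp.card_perp (⊥ : AddSubgroup F) hK (L.Bb S)
  rw [hF] at hperp
  have hC : perp (⊥ : AddSubgroup F) (L.Bb S) ≠ ⊥ := by
    intro h
    rw [h, AddSubgroup.card_bot, mul_one] at hperp
    apply hB
    apply AddSubgroup.eq_top_of_card_eq
    rw [hperp, Nat.card_eq_fintype_card, Fintype.card_fun, Fintype.card_sum, Fintype.card_fin, hF,
      two_mul]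
  have hR : ∀ l ∈ L.S1 S, ∀ x ∈ perp (⊥ : AddSubgroup F) (L.Bb S),
      l.1 *ᵥ x ∈ perp (⊥ : AddSubgroup F) (L.Bb S) := by
    rintro l ⟨w0, a0, hl⟩ x hx w hw
    have hl' : L.rho w0 a0 * L.tor 1 * L.eps l ∈ S := by rw [map_one, mul_one]; exact hl
    have h1 := Cfsg.Agent.Lib.Helper91.MinSp.Bb_invariant L S w0 a0 1 l hl' (l⁻¹.1 *ᵥ w)
    rw [sp_mulVec_inv_mulVec, Units.val_one, one_smul] at h1
    have h2 := hx _ (h1.2 hw)
    rw [← sp_preserves l, sp_mulVec_inv_mulVec] at h2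
    exact h2
  have horb := Cfsg.Agent.Lib.Helper1.MinSp.orbit_ratio (L.S1 S) _ hC hR
  rw [hF] at horb
  set I := S.index
  set b := Nat.card (L.Bb S)
  set c := Nat.card (perp (⊥ : AddSubgroup F) (L.Bb S))
  set i1 := (L.S1 S).index
  have hb : 0 < b := Nat.card_pos
  have hc : 0 < c := Nat.card_pos
  have hi1 : 0 < i1 := Nat.pos_of_ne_zero (Subgroup.index_ne_zero_of_finite)
  have hI : I = 2 * c * i1 := by
    apply Nat.eq_of_mul_eq_mul_right hb
    have : I * b = 2 ^ (2 * m + 1) * i1 := by simpa using hidx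
    rw [this, pow_succ, ← hperp]; ring
  have h2 : 2 ^ (2 * m + 1) ≤ I := by
    obtain ⟨c', hc'⟩ : ∃ c', c = c' + 1 := ⟨c - 1, by omega⟩
    rw [hc', Nat.add_sub_cancel] at horb
    have hp : 0 < 2 ^ (2 * m) := by positivity
    have horb' : 2 ^ (2 * m) ≤ i1 * c' + 1 := by omega
    rw [hI, pow_succ, hc']
    calc 2 ^ (2 * m) * 2 ≤ (i1 * c' + 1) * 2 := Nat.mul_le_mul_right _ horb'
      _ ≤ (i1 * c' + i1) * 2 := Nat.mul_le_mul_right _ (by omega)
      _ = 2 * (c' + 1) * i1 := by ring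
  refine le_trans ?_ h2
  calc 2 ^ m * (2 ^ (m + 1) - 1) ≤ 2 ^ m * 2 ^ (m + 1) := Nat.mul_le_mul_left _ (Nat.sub_le _ _)
    _ = 2 ^ (2 * m + 1) := by rw [← pow_add]; congr 1; ring

end Cfsg.Agent.Lib.Helper62.MinSp2
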