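import Mathlib
import Cfsg.Agent.Lib.Helper14.MinSp2.Defs
import Cfsg.Agent.Lib.Helper62.MinSp2.F2

/-! Group-theoretic part of [T3] of the S2142 farm. -/

set_option autoImplicit false

namespace Cfsg.Agent.Lib.Helper62.MinSp2

open Matrix Cfsg.Agent.Lib.Helper13 Cfsg.Agent.Lib.Helper5 Cfsg.Agent.Lib.Helper14.MinSp
open Cfsg.Agent.Lib.Helper14.MinSp2

variable {F : Type*} [Field F] [Fintype F] {m : ℕ}

omit [Fintype F] in
lemma T_conj (H : Subgroup (Matrix.symplecticGroup (Fin m) F))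
    {x y : Fin m ⊕ Fin m → F} (hy : tv y 1 ∈ H) (hxy : Cfsg.sympForm m F x y = 1) :
    tv x 1 ∈ H ↔ tv (x + y) 1 ∈ H := by
  have key : tv y 1 * tv x 1 * (tv y 1)⁻¹ = tv (x + y) 1 := by
    rw [tv_conj, tv_mulVec, hxy, mul_one, one_smul]
  constructor
  · intro h
    rw [← key]
    exact H.mul_mem (H.mul_mem hy h) (H.inv_mem hy)
  · intro h
    have : tv x 1 = (tv y 1)⁻¹ * tv (x + y) 1 * tv y 1 := by
      rw [← key]; group
    rw [this]
    exact H.mul_mem (H.mul_mem (H.inv_mem hy) h) hy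

lemma sieg_unique (hF : Fintype.card F = 2) (H : Subgroup (Matrix.symplecticGroup (Fin m) F))
    {z w : Fin m ⊕ Fin m → F} (hzT : tv z 1 ∉ H) (hzw : Cfsg.sympForm m F z w = 0) {a a' : F}
    (h : sieg z w a ∈ H) (h' : sieg z w a' ∈ H) : a = a' := by
  by_contra hne
  apply hzT
  have h1 : a + a' = 1 := by
    rcases f2_cases hF a with rfl | rfl <;> rcases f2_cases hF a' with rfl | rfl
    · exact absurd rfl hne
    · simp
    · simp
    · exact absurd rfl hne
  have := H.mul_mem h h'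
  rw [Cfsg.Agent.Lib.Helper24.MinSp.sieg_mul z w w hzw hzw, v2_add_self hF, sympForm_self,
    add_zero, h1, Cfsg.Agent.Lib.Helper14.MinSp.sieg_zero] at this
  exact this

lemma sieg_one_eq (hF : Fintype.card F = 2) {x y : Fin m ⊕ Fin m → F}
    (hxy : Cfsg.sympForm m F x y = 0) : sieg x y 1 = tv (x + y) 1 * tv y 1 := by
  have hyx : Cfsg.sympForm m F y x = 0 := by rw [sf_symm hF, hxy]
  have h2 := f2_two hF
  apply sp_ext
  intro v
  rw [Cfsg.Agent.Lib.Helper14.MinSp.sieg_mulVec x y hxy, sp_mul_mulVec, tv_mulVec, tv_mulVec]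
  simp only [sympForm_add_left, sympForm_add_right, sympForm_smul_left, sympForm_self, hyx,
    one_mul, mul_zero, add_zero]
  have : (2 * Cfsg.sympForm m F v y) • y = 0 := by rw [h2, zero_mul, zero_smul]
  linear_combination (norm := module) -this

lemma F1 (hF : Fintype.card F = 2) (H : Subgroup (Matrix.symplecticGroup (Fin m) F))
    (hstar : ∀ u w : Fin m ⊕ Fin m → F, u ≠ 0 → tv u 1 ∉ H → Cfsg.sympForm m F u w = 0 →
      ∃ a, sieg u w a ∈ H)
    {x y : Fin m ⊕ Fin m → F} (hx : x ≠ 0) (hxT : tv x 1 ∉ H) (hy : y ≠ 0) (hyT : tv y 1 ∈ H)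
    (hxy : Cfsg.sympForm m F x y = 0) : sieg x y 1 ∈ H ∧ tv (x + y) 1 ∈ H := by
  have hyt : ∀ t : F, y ≠ t • x := by
    intro t
    rcases f2_cases hF t with rfl | rfl
    · simpa using hy
    · rw [one_smul]
      rintro rfl
      exact hxT hyT
  obtain ⟨w, hxw, hwy⟩ := Cfsg.Agent.Lib.Helper24.MinSp.exists_perp x y hx hyt 1
  obtain ⟨a, ha⟩ := hstar x w hx hxT hxw
  obtain ⟨b, hb⟩ := hstar x y hx hxT hxy
  have hxwy : Cfsg.sympForm m F x (w + y) = 0 := by rw [sympForm_add_right, hxw, hxy, add_zero]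
  have h1 : sieg x (w + y) a ∈ H := by
    have := H.mul_mem (H.mul_mem hyT ha) (H.inv_mem hyT)
    rw [Cfsg.Agent.Lib.Helper14.MinSp.sieg_conj, tv_mulVec, tv_mulVec, hxy, hwy] at this
    simpa using this
  have h2 : sieg x (w + y) (a + b + 1) ∈ H := by
    have := H.mul_mem ha hb
    rw [Cfsg.Agent.Lib.Helper24.MinSp.sieg_mul x w y hxw hxy, sf_symm hF, hwy] at this
    exact this
  have h3 := sieg_unique hF H hxT hxwy h1 h2
  have hb1 : b = 1 := by
    have : b + 1 = 0 := by linear_combination -h3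
    have h4 := f2_add_self hF (1 : F)
    linear_combination this - h4
  subst hb1
  refine ⟨hb, ?_⟩
  have h5 : tv (x + y) 1 = sieg x y 1 * (tv y 1)⁻¹ := by
    rw [sieg_one_eq hF hxy]; group
  rw [h5]
  exact H.mul_mem hb (H.inv_mem hyT)

lemma F2a (hF : Fintype.card F = 2) (H : Subgroup (Matrix.symplecticGroup (Fin m) F))
    (hstar : ∀ u w : Fin m ⊕ Fin m → F, u ≠ 0 → tv u 1 ∉ H → Cfsg.sympForm m F u w = 0 →
      ∃ a, sieg u w a ∈ H)
    {z a b : Fin m ⊕ Fin m → F} (hz : z ≠ 0) (hzT : tv z 1 ∉ H) (ha : a ≠ 0) (haT : tv a 1 ∈ H)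
    (hb : b ≠ 0) (hbT : tv b 1 ∈ H) (hab : a + b ≠ 0) (habT : tv (a + b) 1 ∈ H)
    (Bab : Cfsg.sympForm m F a b = 0) (Bza : Cfsg.sympForm m F z a = 0)
    (Bzb : Cfsg.sympForm m F z b = 0) : False := by
  have Bzab : Cfsg.sympForm m F z (a + b) = 0 := by rw [sympForm_add_right, Bza, Bzb, add_zero]
  have h1 := (F1 hF H hstar hz hzT ha haT Bza).1
  have h2 := (F1 hF H hstar hz hzT hb hbT Bzb).1
  have h3 := (F1 hF H hstar hz hzT hab habT Bzab).1
  have h4 := H.mul_mem h1 h2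
  rw [Cfsg.Agent.Lib.Helper24.MinSp.sieg_mul z a b Bza Bzb, sf_symm hF, Bab, add_zero,
    f2_add_self hF] at h4
  exact zero_ne_one (sieg_unique hF H hzT Bzab h4 h3)

end Cfsg.Agent.Lib.Helper62.MinSp2
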