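import Mathlib
import Cfsg.Agent.Lib.Helper14.MinSp2.Defs
import Cfsg.Agent.Lib.Helper62.MinSp2.T3a

/-! [T3] of the S2142 farm. -/

set_option autoImplicit false

namespace Cfsg.Agent.Lib.Helper62.MinSp2

open Matrix Cfsg.Agent.Lib.Helper13 Cfsg.Agent.Lib.Helper5 Cfsg.Agent.Lib.Helper14.MinSp
open Cfsg.Agent.Lib.Helper14.MinSp2

variable {F : Type*} [Field F] [Fintype F] {m : ℕ}

omit [Fintype F] in
lemma exists_three (hm : 3 ≤ m) (z a b : Fin m ⊕ Fin m → F) :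
    ∃ y1 y2 y3 : Fin m ⊕ Fin m → F,
      (∀ c1 c2 c3 : F, c1 • y1 + c2 • y2 + c3 • y3 = 0 → c1 = 0 ∧ c2 = 0 ∧ c3 = 0) ∧
      (∀ c1 c2 c3 : F, Cfsg.sympForm m F (c1 • y1 + c2 • y2 + c3 • y3) z = 0 ∧
        Cfsg.sympForm m F (c1 • y1 + c2 • y2 + c3 • y3) a = 0 ∧
        Cfsg.sympForm m F (c1 • y1 + c2 • y2 + c3 • y3) b = 0) := by
  classical
  let φ : (Fin m ⊕ Fin m → F) →ₗ[F] (Fin 3 → F) :=
    { toFun := fun v => ![Cfsg.sympForm m F v z, Cfsg.sympForm m F v a, Cfsg.sympForm m F v b]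
      map_add' := by
        intro v w
        ext i
        fin_cases i <;> simp [sympForm_add_left]
      map_smul' := by
        intro c v
        ext i
        fin_cases i <;> simp [sympForm_smul_left] }
  have hker : 3 ≤ Module.finrank F (LinearMap.ker φ) := by
    have h1 := LinearMap.finrank_range_add_finrank_ker φ
    have h2 := Submodule.finrank_le (LinearMap.range φ)
    rw [Module.finrank_fin_fun] at h2
    rw [Module.finrank_pi] at h1
    simp only [Fintype.card_sum, Fintype.card_fin] at h1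
    omega
  obtain ⟨f, hf⟩ := exists_linearIndependent_of_le_finrank hker
  have hf' := hf.map' (LinearMap.ker φ).subtype (Submodule.ker_subtype _)
  rw [Fintype.linearIndependent_iff] at hf'
  refine ⟨(f 0 : Fin m ⊕ Fin m → F), (f 1 : Fin m ⊕ Fin m → F), (f 2 : Fin m ⊕ Fin m → F), ?_, ?_⟩
  · intro c1 c2 c3 h
    have := hf' ![c1, c2, c3] (by
      rw [Fin.sum_univ_three]
      simpa using h)
    exact ⟨this 0, this 1, this 2⟩
  · intro c1 c2 c3
    have hmem : c1 • (f 0 : Fin m ⊕ Fin m → F) + c2 • (f 1 : Fin m ⊕ Fin m → F)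
        + c3 • (f 2 : Fin m ⊕ Fin m → F) ∈ LinearMap.ker φ :=
      Submodule.add_mem _ (Submodule.add_mem _ (Submodule.smul_mem _ _ (f 0).2)
        (Submodule.smul_mem _ _ (f 1).2)) (Submodule.smul_mem _ _ (f 2).2)
    rw [LinearMap.mem_ker] at hmem
    exact ⟨congrFun hmem 0, congrFun hmem 1, congrFun hmem 2⟩

lemma F2 (hF : Fintype.card F = 2) (hm : 3 ≤ m) (H : Subgroup (Matrix.symplecticGroup (Fin m) F))
    (hN : ∃ v : Fin m ⊕ Fin m → F, v ≠ 0 ∧ tv v 1 ∉ H)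
    (hstar : ∀ u w : Fin m ⊕ Fin m → F, u ≠ 0 → tv u 1 ∉ H → Cfsg.sympForm m F u w = 0 →
      ∃ a, sieg u w a ∈ H)
    {a b : Fin m ⊕ Fin m → F} (ha : a ≠ 0) (haT : tv a 1 ∈ H)
    (hb : b ≠ 0) (hbT : tv b 1 ∈ H) (hab : a + b ≠ 0) (habT : tv (a + b) 1 ∈ H)
    (Bab : Cfsg.sympForm m F a b = 0) : False := by
  obtain ⟨z0, hz0, hz0T⟩ := hN
  have all : ∀ z : Fin m ⊕ Fin m → F, z ≠ 0 → Cfsg.sympForm m F z a = 0 →
      Cfsg.sympForm m F z b = 0 → tv z 1 ∈ H := by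
    intro z hz h1 h2
    by_contra hzT
    exact F2a hF H hstar hz hzT ha haT hb hbT hab habT Bab h1 h2
  obtain ⟨y1, y2, y3, hind, hperp⟩ := exists_three hm z0 a b
  -- any two distinct nonzero vectors of the span pair to one
  have key : ∀ c1 c2 c3 d1 d2 d3 : F,
      c1 • y1 + c2 • y2 + c3 • y3 ≠ 0 → d1 • y1 + d2 • y2 + d3 • y3 ≠ 0 →
      (c1 + d1) • y1 + (c2 + d2) • y2 + (c3 + d3) • y3 ≠ 0 →
      Cfsg.sympForm m F (c1 • y1 + c2 • y2 + c3 • y3) (d1 • y1 + d2 • y2 + d3 • y3) = 1 := by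
    intro c1 c2 c3 d1 d2 d3 hc hd hcd
    by_contra hne
    have h0 := (f2_cases hF _).resolve_right hne
    have hsum : (c1 • y1 + c2 • y2 + c3 • y3) + (d1 • y1 + d2 • y2 + d3 • y3)
        = (c1 + d1) • y1 + (c2 + d2) • y2 + (c3 + d3) • y3 := by module
    obtain ⟨p1, p2, p3⟩ := hperp c1 c2 c3
    obtain ⟨q1, q2, q3⟩ := hperp d1 d2 d3
    obtain ⟨r1, r2, r3⟩ := hperp (c1 + d1) (c2 + d2) (c3 + d3)
    refine F2a hF H hstar hz0 hz0T hc (all _ hc p2 p3) hd (all _ hd q2 q3) (by rw [hsum]; exact hcd)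
      (by rw [hsum]; exact all _ hcd r2 r3) h0 (by rw [sf_symm hF]; exact p1)
      (by rw [sf_symm hF]; exact q1)
  have ne : ∀ c1 c2 c3 : F, (c1 ≠ 0 ∨ c2 ≠ 0 ∨ c3 ≠ 0) → c1 • y1 + c2 • y2 + c3 • y3 ≠ 0 := by
    intro c1 c2 c3 h h0
    obtain ⟨e1, e2, e3⟩ := hind c1 c2 c3 h0
    rcases h with h | h | h
    · exact h e1
    · exact h e2
    · exact h e3
  have k1 := key 1 0 0 0 1 0 (ne _ _ _ (by simp)) (ne _ _ _ (by simp)) (ne _ _ _ (by simp))
  have k2 := key 1 0 0 0 0 1 (ne _ _ _ (by simp)) (ne _ _ _ (by simp)) (ne _ _ _ (by simp))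
  have k3 := key 1 0 0 0 1 1 (ne _ _ _ (by simp)) (ne _ _ _ (by simp)) (ne _ _ _ (by simp))
  simp only [one_smul, zero_smul, add_zero, zero_add, sympForm_add_right] at k1 k2 k3
  rw [k1, k2, f2_add_self hF] at k3
  exact zero_ne_one k3

lemma F3nn (hF : Fintype.card F = 2) (H : Subgroup (Matrix.symplecticGroup (Fin m) F))
    (hstar : ∀ u w : Fin m ⊕ Fin m → F, u ≠ 0 → tv u 1 ∉ H → Cfsg.sympForm m F u w = 0 →
      ∃ a, sieg u w a ∈ H)
    {x y : Fin m ⊕ Fin m → F} (hx : x ≠ 0) (hxT : tv x 1 ∉ H) (hyT : tv y 1 ∉ H)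
    (hxy : x + y ≠ 0) (Bxy : Cfsg.sympForm m F x y = 0) : tv (x + y) 1 ∉ H := by
  intro h
  have := (F1 hF H hstar hx hxT hxy h
    (by rw [sympForm_add_right, sympForm_self, Bxy, add_zero])).2
  rw [v2_add_cancel hF] at this
  exact hyT this

omit [Fintype F] in
lemma ne_zero_of_notT (H : Subgroup (Matrix.symplecticGroup (Fin m) F))
    {x : Fin m ⊕ Fin m → F} (hxT : tv x 1 ∉ H) : x ≠ 0 := by
  rintro rfl
  rw [tv_zero_left] at hxT
  exact hxT H.one_mem

lemma F4 (hF : Fintype.card F = 2) (H : Subgroup (Matrix.symplecticGroup (Fin m) F))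
    (hS : ∃ v : Fin m ⊕ Fin m → F, v ≠ 0 ∧ tv v 1 ∈ H)
    (hstar : ∀ u w : Fin m ⊕ Fin m → F, u ≠ 0 → tv u 1 ∉ H → Cfsg.sympForm m F u w = 0 →
      ∃ a, sieg u w a ∈ H)
    {x y : Fin m ⊕ Fin m → F} (hxT : tv x 1 ∉ H) (hyT : tv y 1 ∉ H)
    (Bxy : Cfsg.sympForm m F x y = 1) : tv (x + y) 1 ∈ H := by
  by_contra hxyT
  have hx := ne_zero_of_notT H hxT
  have hy := ne_zero_of_notT H hyT
  have Byx : Cfsg.sympForm m F y x = 1 := by rw [sf_symm hF, Bxy]
  obtain ⟨v, hv, hvT⟩ := hS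
  set α := Cfsg.sympForm m F v y with hα
  set β := Cfsg.sympForm m F v x with hβ
  set h := α • x + β • y with hh
  set w := v + h with hw
  have Bwx : Cfsg.sympForm m F w x = 0 := by
    rw [hw, hh]
    simp only [sympForm_add_left, sympForm_smul_left, sympForm_self, Byx, ← hβ]
    linear_combination f2_add_self hF β
  have Bwy : Cfsg.sympForm m F w y = 0 := by
    rw [hw, hh]
    simp only [sympForm_add_left, sympForm_smul_left, sympForm_self, Bxy, ← hα]
    linear_combination f2_add_self hF α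
  have hNh : h = 0 ∨ tv h 1 ∉ H := by
    rw [hh]
    rcases f2_cases hF α with e | e <;> rcases f2_cases hF β with e' | e' <;> rw [e, e']
    · left; simp
    · right; simpa using hyT
    · right; simpa using hxT
    · right; simpa using hxyT
  have hw0 : w ≠ 0 := by
    intro h0
    have hvh : v = h := v2_add_eq_zero hF h0
    rcases hNh with e | e
    · exact hv (hvh.trans e)
    · exact e (hvh ▸ hvT)
  have hwT : tv w 1 ∈ H := by
    rcases hNh with e | e
    · rw [hw, e, add_zero]; exact hvT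
    · by_contra hwT
      have hsum : h + w = v := by
        rw [hw, add_comm v h, v2_add_cancel hF]
      have Bhw : Cfsg.sympForm m F h w = 0 := by
        rw [sf_symm hF, hh, sympForm_add_right, sympForm_smul_right, sympForm_smul_right, Bwx, Bwy]
        simp
      have := F3nn hF H hstar (ne_zero_of_notT H e) e hwT (by rw [hsum]; exact hv) Bhw
      rw [hsum] at this
      exact this hvT
  have t1 := (F1 hF H hstar hx hxT hw0 hwT (by rw [sf_symm hF, Bwx])).2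
  have t2 := (F1 hF H hstar hy hyT hw0 hwT (by rw [sf_symm hF, Bwy])).2
  have B1 : Cfsg.sympForm m F (x + w) (y + w) = 1 := by
    simp only [sympForm_add_left, sympForm_add_right, sympForm_self, Bxy, Bwy,
      sf_symm hF x w, Bwx]
    simp
  have t3 := (T_conj H t2 B1).1 t1
  have hs : x + w + (y + w) = x + y := by
    have := v2_add_self hF w
    linear_combination (norm := module) this
  rw [hs] at t3
  exact hxyT t3

theorem star_quad (hF : Fintype.card F = 2) (hm : 3 ≤ m)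
    (H : Subgroup (Matrix.symplecticGroup (Fin m) F))
    (hS : ∃ v : Fin m ⊕ Fin m → F, v ≠ 0 ∧ tv v 1 ∈ H)
    (hN : ∃ v : Fin m ⊕ Fin m → F, v ≠ 0 ∧ tv v 1 ∉ H)
    (hstar : ∀ u w : Fin m ⊕ Fin m → F, u ≠ 0 → tv u 1 ∉ H → Cfsg.sympForm m F u w = 0 →
      ∃ a, sieg u w a ∈ H) :
    ∃ Q : (Fin m ⊕ Fin m → F) → F, IsQuad Q ∧ H ≤ stabQ Q := by
  classical
  refine ⟨fun x => if x ≠ 0 ∧ tv x 1 ∈ H then 1 else 0, ?_, ?_⟩
  · intro x y
    have hQ1 : ∀ v : Fin m ⊕ Fin m → F, v ≠ 0 → tv v 1 ∈ H →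
        (if v ≠ 0 ∧ tv v 1 ∈ H then (1 : F) else 0) = 1 := fun v h1 h2 => if_pos ⟨h1, h2⟩
    have hQ0 : ∀ v : Fin m ⊕ Fin m → F, tv v 1 ∉ H →
        (if v ≠ 0 ∧ tv v 1 ∈ H then (1 : F) else 0) = 0 := fun v h1 => if_neg (fun h => h1 h.2)
    have hQz : (if (0 : Fin m ⊕ Fin m → F) ≠ 0 ∧ tv (0 : Fin m ⊕ Fin m → F) 1 ∈ H
        then (1 : F) else 0) = 0 := if_neg (fun h => h.1 rfl)
    have h11 := f2_add_self hF (1 : F)
    show (if x + y ≠ 0 ∧ tv (x + y) 1 ∈ H then (1 : F) else 0)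
      = (if x ≠ 0 ∧ tv x 1 ∈ H then (1 : F) else 0) + (if y ≠ 0 ∧ tv y 1 ∈ H then (1 : F) else 0)
        + Cfsg.sympForm m F x y
    by_cases hx : x = 0
    · subst hx
      rw [zero_add, hQz, sympForm_zero_left]; simp
    by_cases hy : y = 0
    · subst hy
      rw [add_zero, hQz, sympForm_zero_right]; simp
    by_cases hxy : x + y = 0
    · have := v2_add_eq_zero hF hxy
      subst this
      rw [hxy, hQz, sympForm_self, f2_add_self hF]; simp
    rcases f2_cases hF (Cfsg.sympForm m F x y) with B | B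
    · rw [B, add_zero]
      by_cases hxT : tv x 1 ∈ H <;> by_cases hyT : tv y 1 ∈ H
      · have : tv (x + y) 1 ∉ H := fun h => F2 hF hm H hN hstar hx hxT hy hyT hxy h B
        rw [hQ1 x hx hxT, hQ1 y hy hyT, hQ0 _ this, h11]
      · have := (F1 hF H hstar hy hyT hx hxT (by rw [sf_symm hF, B])).2
        rw [add_comm y x] at this
        rw [hQ1 x hx hxT, hQ0 y hyT, hQ1 _ hxy this, add_zero]
      · have := (F1 hF H hstar hx hxT hy hyT B).2
        rw [hQ0 x hxT, hQ1 y hy hyT, hQ1 _ hxy this, zero_add]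
      · have := F3nn hF H hstar hx hxT hyT hxy B
        rw [hQ0 x hxT, hQ0 y hyT, hQ0 _ this, zero_add]
    · rw [B]
      by_cases hyT : tv y 1 ∈ H
      · by_cases hxT : tv x 1 ∈ H
        · have := (T_conj H hyT B).1 hxT
          rw [hQ1 x hx hxT, hQ1 y hy hyT, hQ1 _ hxy this, h11, zero_add]
        · have : tv (x + y) 1 ∉ H := fun h => hxT ((T_conj H hyT B).2 h)
          rw [hQ0 x hxT, hQ1 y hy hyT, hQ0 _ this, zero_add, h11]
      · by_cases hxT : tv x 1 ∈ H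
        · have : tv (x + y) 1 ∉ H := fun h => hyT ((T_conj H hxT (by rw [sf_symm hF, B])).2
            (by rw [add_comm y x]; exact h))
          rw [hQ1 x hx hxT, hQ0 y hyT, hQ0 _ this, add_zero, h11]
        · have := F4 hF H hS hstar hxT hyT B
          rw [hQ0 x hxT, hQ0 y hyT, hQ1 _ hxy this]; simp
  · intro g hg x
    show (if g.1 *ᵥ x ≠ 0 ∧ tv (g.1 *ᵥ x) 1 ∈ H then (1 : F) else 0)
      = (if x ≠ 0 ∧ tv x 1 ∈ H then (1 : F) else 0)
    have h1 : g.1 *ᵥ x ≠ 0 ↔ x ≠ 0 := by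
      constructor
      · rintro h rfl
        exact h (Matrix.mulVec_zero _)
      · exact fun h => sp_mulVec_ne_zero' g h
    have h2 : tv (g.1 *ᵥ x) 1 ∈ H ↔ tv x 1 ∈ H := by
      rw [← tv_conj]
      constructor
      · intro h
        have : tv x 1 = g⁻¹ * (g * tv x 1 * g⁻¹) * g := by group
        rw [this]
        exact H.mul_mem (H.mul_mem (H.inv_mem hg) h) hg
      · intro h
        exact H.mul_mem (H.mul_mem hg h) (H.inv_mem hg)
    exact if_congr (and_congr h1 h2) rfl rfl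

end Cfsg.Agent.Lib.Helper62.MinSp2
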