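import Mathlib
import Cfsg.Agent.Lib.Helper14.MinSp2.Defs
import Cfsg.Agent.Lib.Helper62.MinSp2.F2
import Cfsg.Agent.S0765

/-! [T5] of the S2142 farm: the index of the stabiliser of a quadratic form in `Sp_{2m}(2)`. -/

set_option autoImplicit false

namespace Cfsg.Agent.Lib.Helper62.MinSp2

open Matrix Cfsg.Agent.Lib.Helper13 Cfsg.Agent.Lib.Helper5 Cfsg.Agent.Lib.Helper14.MinSp
open Cfsg.Agent.Lib.Helper14.MinSp2

variable {F : Type*} [Field F] [Fintype F] {m : ℕ}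

omit [Fintype F] in
lemma isQuad_zero {Q : (Fin m ⊕ Fin m → F) → F} (hQ : IsQuad Q) : Q 0 = 0 := by
  have := hQ 0 0
  rw [add_zero, sympForm_zero_left] at this
  linear_combination -this

lemma isQuad_tv (hF : Fintype.card F = 2) {Q : (Fin m ⊕ Fin m → F) → F} (hQ : IsQuad Q)
    (b x : Fin m ⊕ Fin m → F) :
    Q ((tv b 1).1 *ᵥ x) = Q x + Cfsg.sympForm m F x b * (Q b + 1) := by
  rw [tv_mulVec]
  rcases f2_cases hF (Cfsg.sympForm m F x b) with h | h
  · rw [h]; simp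
  · rw [h, mul_one, one_smul, hQ, h]; ring

omit [Fintype F] in
lemma tv_zero_right' (u : Fin m ⊕ Fin m → F) : tv u (0 : F) = 1 := by
  apply sp_ext
  intro x
  rw [tv_mulVec]
  change _ = (1 : Matrix _ _ F) *ᵥ x
  simp

lemma isQuad_step (hF : Fintype.card F = 2) {Q : (Fin m ⊕ Fin m → F) → F} (hQ : IsQuad Q)
    (g : Matrix.symplecticGroup (Fin m) F) (b : Fin m ⊕ Fin m → F)
    (h : ∃ a, Q a = 0 ∧ ∀ x, Q (g.1 *ᵥ x) = Q x + Cfsg.sympForm m F x a) :
    ∃ a, Q a = 0 ∧ ∀ x, Q ((g * tv b 1).1 *ᵥ x) = Q x + Cfsg.sympForm m F x a := by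
  obtain ⟨a, ha0, ha⟩ := h
  have key : ∀ x, Q ((g * tv b 1).1 *ᵥ x) = Q x + Cfsg.sympForm m F x a
      + Cfsg.sympForm m F x b * (Q b + 1 + Cfsg.sympForm m F b a) := by
    intro x
    rw [sp_mul_mulVec, ha, isQuad_tv hF hQ, tv_mulVec, sympForm_add_left, sympForm_smul_left]
    ring
  rcases f2_cases hF (Q b + 1 + Cfsg.sympForm m F b a) with hk | hk
  · refine ⟨a, ha0, fun x => ?_⟩
    rw [key, hk]; ring
  · refine ⟨a + b, ?_, fun x => ?_⟩
    · rw [hQ, ha0, sf_symm hF]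
      linear_combination hk
    · rw [key, hk, sympForm_add_right]; ring

lemma isQuad_all (hF : Fintype.card F = 2) {Q : (Fin m ⊕ Fin m → F) → F} (hQ : IsQuad Q)
    (g : Matrix.symplecticGroup (Fin m) F) :
    ∃ a, Q a = 0 ∧ ∀ x, Q (g.1 *ᵥ x) = Q x + Cfsg.sympForm m F x a := by
  have hg : g ∈ Subgroup.closure {A : Matrix.symplecticGroup (Fin m) F |
      ∃ (w : Fin m ⊕ Fin m → F) (c : F),
        (A : Matrix (Fin m ⊕ Fin m) (Fin m ⊕ Fin m) F) = Cfsg.sympTransvection m w c} := by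
    rw [Cfsg.Agent.S0765.result m]; trivial
  have gen : ∀ y ∈ {A : Matrix.symplecticGroup (Fin m) F |
      ∃ (w : Fin m ⊕ Fin m → F) (c : F),
        (A : Matrix (Fin m ⊕ Fin m) (Fin m ⊕ Fin m) F) = Cfsg.sympTransvection m w c},
      ∃ w, y = tv w 1 := by
    rintro y ⟨w, c, hy⟩
    have hy' : y = tv w c := Subtype.ext hy
    rcases f2_cases hF c with rfl | rfl
    · exact ⟨0, by rw [hy', tv_zero_right', tv_zero_left]⟩
    · exact ⟨w, hy'⟩
  induction hg using Subgroup.closure_induction_right with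
  | one =>
    refine ⟨0, isQuad_zero hQ, fun x => ?_⟩
    rw [sympForm_zero_right, add_zero]
    change Q ((1 : Matrix _ _ F) *ᵥ x) = _
    rw [Matrix.one_mulVec]
  | mul_right x hx y hy ih =>
    obtain ⟨w, rfl⟩ := gen y hy
    exact isQuad_step hF hQ x w ih
  | mul_inv_cancel x hx y hy ih =>
    obtain ⟨w, rfl⟩ := gen y hy
    rw [tv_inv, f2_neg hF]
    exact isQuad_step hF hQ x w ih

theorem index_stabQ (hF : Fintype.card F = 2) (Q : (Fin m ⊕ Fin m → F) → F) (hQ : IsQuad Q) :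
    (stabQ Q).index = Nat.card {x // Q x = 0} := by
  classical
  choose α hα0 hα using isQuad_all hF hQ
  have huniq : ∀ (g : Matrix.symplecticGroup (Fin m) F) (a : Fin m ⊕ Fin m → F),
      (∀ x, Q (g.1 *ᵥ x) = Q x + Cfsg.sympForm m F x a) → α g = a := by
    intro g a h
    rw [← sub_eq_zero]
    apply sympForm_nondeg
    intro v
    rw [sympForm_swap, sympForm_sub_right]
    have h1 := hα g v
    have h2 := h v
    linear_combination h1 - h2
  have hkey : ∀ g g' : Matrix.symplecticGroup (Fin m) F,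
      α g⁻¹ = α g'⁻¹ ↔ g⁻¹ * g' ∈ stabQ Q := by
    intro g g'
    have e1 : ∀ x, Q ((g⁻¹ * g').1 *ᵥ x)
        = Q (g'.1 *ᵥ x) + Cfsg.sympForm m F (g'.1 *ᵥ x) (α g⁻¹) := by
      intro x
      rw [sp_mul_mulVec, hα]
    have e2 : ∀ x, Q x = Q (g'.1 *ᵥ x) + Cfsg.sympForm m F (g'.1 *ᵥ x) (α g'⁻¹) := by
      intro x
      rw [← hα, sp_inv_mulVec_mulVec]
    constructor
    · intro h x
      rw [e1, h, ← e2]
    · intro h
      apply huniq
      intro y
      have h1 := e1 (g'⁻¹.1 *ᵥ y)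
      have h2 := e2 (g'⁻¹.1 *ᵥ y)
      have h3 := h (g'⁻¹.1 *ᵥ y)
      rw [sp_mulVec_inv_mulVec] at h1 h2
      have h4 := hα g⁻¹ y
      rw [h4]
      linear_combination h2 - h1 + h3
  let f : Matrix.symplecticGroup (Fin m) F ⧸ stabQ Q → {x // Q x = 0} :=
    Quotient.lift (fun g => (⟨α g⁻¹, hα0 g⁻¹⟩ : {x // Q x = 0})) (by
      intro g g' h
      have h' : g⁻¹ * g' ∈ stabQ Q := QuotientGroup.leftRel_apply.1 h
      exact Subtype.ext ((hkey g g').2 h'))
  rw [Subgroup.index]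
  refine Nat.card_congr (Equiv.ofBijective f ⟨?_, ?_⟩)
  · intro x y
    induction x using Quotient.inductionOn with | _ g => ?_
    induction y using Quotient.inductionOn with | _ g' => ?_
    intro h
    have h' : α g⁻¹ = α g'⁻¹ := congrArg Subtype.val h
    exact Quotient.sound (QuotientGroup.leftRel_apply.2 ((hkey g g').1 h'))
  · rintro ⟨a, ha⟩
    refine ⟨Quotient.mk _ (tv a 1), Subtype.ext ?_⟩
    show α (tv a 1)⁻¹ = a
    apply huniq
    intro x
    rw [tv_inv, f2_neg hF, isQuad_tv hF hQ, ha]; ring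

end Cfsg.Agent.Lib.Helper62.MinSp2
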